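import Cfsg.Agent.H155.TI.Defs
import Cfsg.Agent.Characters.ClassMul
import Cfsg.Agent.Characters.Linear
import Cfsg.Agent.CharactersDeep.Extraspecial
import Cfsg.Agent.CharactersDeep.ModCongr
import Cfsg.Agent.CharactersDeep.RChar
import Cfsg.Agent.Blocks.OrbitSum
import Cfsg.Agent.S0145
import Cfsg.Agent.S0944

/-!
# Columns over a central character; nonvanishing (helper507, task L34-b of S4819, S4820)

* `sum_over` : the sum over the characters over `lam`;
* `col_self`, `col_self'`, `col_ne`;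
* `nonvan` : a square root `c` of a central element, centralizing a Sylow `p`-subgroup: `χ c = m k`, `k` prime to `p`.
-/

set_option autoImplicit false

namespace Cfsg.Agent.H507.TI

open Cfsg Cfsg.Agent.Characters Cfsg.Agent.Characters.Core Cfsg.Agent.H155.TI
open scoped ComplexConjugate

universe u

variable {Z W : Type u} [Group Z] [Group W]

/-- the central character -/
theorem exists_mu [Finite W] {j : Z →* W} (hZ : ∀ z w, j z * w = w * j z) (χ : IrrCharacter W) :
    ∃ μ : Z →* ℂˣ, Over j μ (χ : W → ℂ) := by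
  obtain ⟨c, hc, -⟩ := CharactersDeep.Extraspecial.exists_central_hom χ.2
  have hcen : ∀ z, j z ∈ Subgroup.center W := fun z => Subgroup.mem_center_iff.2 fun w => (hZ z w).symm
  refine ⟨c.comp (j.codRestrict _ hcen), fun z w => ?_⟩
  rw [hZ z w]
  have h1 := hc w ⟨j z, hcen z⟩
  rw [mul_comm] at h1
  exact h1

theorem over_unique {j : Z →* W} {lam μ : Z →* ℂˣ} {χ : IrrCharacter W} [Finite W] (h1 : Over j lam (χ : W → ℂ))
    (h2 : Over j μ (χ : W → ℂ)) : lam = μ := by
  ext z
  have h3 := h1 z 1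
  rw [h2 z 1] at h3
  exact (mul_right_cancel₀ (Characters.Central.irr_one_ne_zero χ.2) h3).symm

/-- the inner product of two linear characters -/
theorem sum_hom [Finite Z] [Fintype Z] (lam μ : Z →* ℂˣ) [Decidable (μ = lam)] :
    ∑ z : Z, conj (lam z : ℂ) * (μ z : ℂ) = if μ = lam then (Nat.card Z : ℂ) else 0 := by
  have hne : (Nat.card Z : ℂ) ≠ 0 := Core.card_ne_zero_complex
  split_ifs with h
  · subst h
    have h1 := classInner_irr_self (Linear.isIrrCharacter_hom μ)
    rw [classInner_def] at h1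
    have h2 : ∑ z : Z, (μ z : ℂ) * conj (μ z : ℂ) = (Nat.card Z : ℂ) := by
      field_simp at h1
      linear_combination h1
    rw [← h2]
    exact Finset.sum_congr rfl fun z _ => mul_comm _ _
  · have h0 : (fun z : Z => (μ z : ℂ)) ≠ fun z => (lam z : ℂ) := by
      intro he
      apply h
      ext z
      exact congrFun he z
    have h1 := classInner_irr_ne (Linear.isIrrCharacter_hom μ) (Linear.isIrrCharacter_hom lam) h0
    rw [classInner_def, mul_eq_zero] at h1
    rcases h1 with h1 | h1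
    · exact absurd h1 (inv_ne_zero hne)
    · rw [← h1]
      exact Finset.sum_congr rfl fun z _ => mul_comm _ _

/-- **The sum over the characters over `lam`.** -/
theorem sum_over [Finite W] [Finite Z] [Fintype Z] [Fintype (IrrCharacter W)] {j : Z →* W}
    (hZ : ∀ z w, j z * w = w * j z) (lam : Z →* ℂˣ)
    (y y' : W) [Fintype {χ : IrrCharacter W // Over j lam (χ : W → ℂ)}] :
    (Nat.card Z : ℂ) * ∑ χ : {χ : IrrCharacter W // Over j lam (χ : W → ℂ)}, (χ.1 : W → ℂ) y * conj ((χ.1 : W → ℂ) y') =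
      ∑ z : Z, conj (lam z : ℂ) * ∑ χ : IrrCharacter W, (χ : W → ℂ) (j z * y) * conj ((χ : W → ℂ) y') := by
  classical
  choose μ hμ using fun χ : IrrCharacter W => exists_mu hZ χ
  have h1 : ∑ z : Z, conj (lam z : ℂ) * ∑ χ : IrrCharacter W, (χ : W → ℂ) (j z * y) * conj ((χ : W → ℂ) y') =
      ∑ χ : IrrCharacter W, (if μ χ = lam then (Nat.card Z : ℂ) else 0) * ((χ : W → ℂ) y * conj ((χ : W → ℂ) y')) := by
    simp only [Finset.mul_sum]
    rw [Finset.sum_comm]
    refine Finset.sum_congr rfl fun χ _ => ?_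
    rw [← sum_hom lam (μ χ), Finset.sum_mul]
    refine Finset.sum_congr rfl fun z _ => ?_
    rw [hμ χ z y]
    ring
  rw [h1]
  simp only [ite_mul, zero_mul]
  rw [← Finset.sum_filter, Finset.mul_sum]
  have h2 : ∀ χ : IrrCharacter W, μ χ = lam ↔ Over j lam (χ : W → ℂ) := fun χ =>
    ⟨fun h => h ▸ hμ χ, fun h => over_unique (hμ χ) h⟩
  rw [← Finset.sum_subtype (Finset.univ.filter fun χ : IrrCharacter W => μ χ = lam)
    (p := fun χ : IrrCharacter W => Over j lam (χ : W → ℂ))
    (f := fun χ : IrrCharacter W => (Nat.card Z : ℂ) * ((χ : W → ℂ) y * conj ((χ : W → ℂ) y')))]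
  intro χ
  rw [Finset.mem_filter, h2]
  exact ⟨fun h => h.2, fun h => ⟨Finset.mem_univ _, h⟩⟩

theorem col_irr [Finite W] [Fintype (IrrCharacter W)] (g h : W) :
    (IsConj g h → ∑ χ : IrrCharacter W, (χ : W → ℂ) g * conj ((χ : W → ℂ) h) =
      (Nat.card (Subgroup.centralizer ({g} : Set W)) : ℂ)) ∧
    (¬ IsConj g h → ∑ χ : IrrCharacter W, (χ : W → ℂ) g * conj ((χ : W → ℂ) h) = 0) := by
  have h1 := Cfsg.Agent.S0145.result g h
  rw [finsum_eq_sum_of_fintype] at h1
  exact h1

/-- column orthogonality over `lam`, the general case -/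
theorem col_self' [Finite W] {j : Z →* W} (hj : Function.Injective j) (hZ : ∀ z w, j z * w = w * j z) (lam : Z →* ℂˣ)
    (y : W) (hy : ∀ z : Z, IsConj y (j z * y) → lam z = 1) [Fintype {χ : IrrCharacter W // Over j lam (χ : W → ℂ)}] :
    (Nat.card Z : ℂ) * ∑ χ : {χ : IrrCharacter W // Over j lam (χ : W → ℂ)}, (χ.1 : W → ℂ) y * conj ((χ.1 : W → ℂ) y) =
      (Nat.card {z : Z // IsConj y (j z * y)} : ℂ) * Nat.card (Subgroup.centralizer ({y} : Set W)) := by
  classical
  have : Finite Z := Finite.of_injective j hj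
  have : Fintype Z := Fintype.ofFinite Z
  have : Finite (IrrCharacter W) := finite_irr
  have : Fintype (IrrCharacter W) := Fintype.ofFinite _
  rw [sum_over hZ lam y y]
  have h1 : ∀ z : Z, conj (lam z : ℂ) * ∑ χ : IrrCharacter W, (χ : W → ℂ) (j z * y) * conj ((χ : W → ℂ) y) =
      if IsConj y (j z * y) then (Nat.card (Subgroup.centralizer ({y} : Set W)) : ℂ) else 0 := by
    intro z
    split_ifs with h
    · have h2 : ∀ χ : IrrCharacter W, (χ : W → ℂ) (j z * y) = (χ : W → ℂ) y := by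
        intro χ
        obtain ⟨c, hc⟩ := isConj_iff.1 h
        rw [← hc]
        exact isIrr_isClassFunction χ.2 _ _
      simp only [h2]
      rw [(col_irr y y).1 (IsConj.refl y), hy z h]
      simp
    · rw [(col_irr (j z * y) y).2 (fun h' => h h'.symm), mul_zero]
  rw [Finset.sum_congr rfl fun z _ => h1 z, ← Finset.sum_filter, Finset.sum_const, nsmul_eq_mul,
    Nat.card_eq_fintype_card (α := {z : Z // IsConj y (j z * y)}), Fintype.card_subtype]

/-- **Column orthogonality over `lam`.** -/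
theorem col_self [Finite W] {j : Z →* W} (hj : Function.Injective j) (hZ : ∀ z w, j z * w = w * j z) (lam : Z →* ℂˣ)
    (y : W) (hy : ∀ z : Z, IsConj y (j z * y) → z = 1) [Fintype {χ : IrrCharacter W // Over j lam (χ : W → ℂ)}] :
    (Nat.card Z : ℂ) * ∑ χ : {χ : IrrCharacter W // Over j lam (χ : W → ℂ)}, (χ.1 : W → ℂ) y * conj ((χ.1 : W → ℂ) y) =
      Nat.card (Subgroup.centralizer ({y} : Set W)) := by
  rw [col_self' hj hZ lam y fun z h => by rw [hy z h, map_one]]
  have h1 : Nat.card {z : Z // IsConj y (j z * y)} = 1 := by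
    rw [Nat.card_eq_one_iff_unique]
    refine ⟨⟨fun a b => Subtype.ext ((hy a.1 a.2).trans (hy b.1 b.2).symm)⟩, ⟨⟨1, ?_⟩⟩⟩
    rw [map_one, one_mul]
  rw [h1, Nat.cast_one, one_mul]

/-- different columns -/
theorem col_ne [Finite W] {j : Z →* W} (hj : Function.Injective j) (hZ : ∀ z w, j z * w = w * j z) (lam : Z →* ℂˣ)
    (y y' : W) (hy : ∀ z : Z, ¬ IsConj y' (j z * y)) [Fintype {χ : IrrCharacter W // Over j lam (χ : W → ℂ)}] :
    ∑ χ : {χ : IrrCharacter W // Over j lam (χ : W → ℂ)}, (χ.1 : W → ℂ) y * conj ((χ.1 : W → ℂ) y') = 0 := by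
  classical
  have : Finite Z := Finite.of_injective j hj
  have : Fintype Z := Fintype.ofFinite Z
  have : Finite (IrrCharacter W) := finite_irr
  have : Fintype (IrrCharacter W) := Fintype.ofFinite _
  have h1 := sum_over hZ lam y y'
  have h2 : ∑ z : Z, conj (lam z : ℂ) * ∑ χ : IrrCharacter W, (χ : W → ℂ) (j z * y) * conj ((χ : W → ℂ) y') = 0 :=
    Finset.sum_eq_zero fun z _ => by
      rw [(col_irr (j z * y) y').2 (fun h' => hy z h'.symm), mul_zero]
  rw [h2, mul_eq_zero] at h1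
  exact h1.resolve_left Core.card_ne_zero_complex

/-! ### The values at a square root of a central element -/

theorem one_eq {χ : W → ℂ} (hχ : IsIrrCharacter W χ) : χ 1 = (charDegree χ : ℂ) := by
  obtain ⟨n, ρ, -, rfl⟩ := hχ
  have h1 : ρ.character 1 = (n : ℂ) := by
    rw [Representation.char_one]
    simp
  have hdeg : Cfsg.charDegree ρ.character = n := by
    unfold Cfsg.charDegree
    rw [h1]
    simp
  rw [hdeg, h1]

/-- the value at a square root of a central element -/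
theorem val [Finite W] {j : Z →* W} (hZ : ∀ z w, j z * w = w * j z) (lam : Z →* ℂˣ) {c : W} {zc : Z} {m : ℂ}
    (hcc : c * c = j zc) (hm : m ^ 2 = (lam zc : ℂ)) (χ : IrrCharacter W) (hχ : Over j lam (χ : W → ℂ)) :
    ∃ k : ℤ, (χ : W → ℂ) c = m * k ∧ (2 : ℤ) ∣ (charDegree (χ : W → ℂ) : ℤ) - k := by
  have hm0 : m ≠ 0 := by
    rintro rfl
    rw [zero_pow two_ne_zero] at hm
    exact (lam zc).ne_zero hm.symm
  obtain ⟨χ, n, ρ, hρ, rfl⟩ := χ
  have h1 : ρ.character 1 = (n : ℂ) := by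
    rw [Representation.char_one]
    simp
  have hdeg : Cfsg.charDegree ρ.character = n := by
    unfold Cfsg.charDegree
    rw [h1]
    simp
  have hn0 : (n : ℂ) ≠ 0 := by
    rw [← h1]
    exact Characters.Central.irr_one_ne_zero ⟨n, ρ, hρ, rfl⟩
  obtain ⟨ω, hω⟩ := Characters.Central.exists_smul_of_comm ρ hρ (ρ (j zc)) (fun g => by
    rw [← map_mul, ← map_mul, hZ zc g])
  have hω' : ω = (lam zc : ℂ) := by
    have h2 := hχ zc 1
    change ρ.character (j zc * 1) = _ * ρ.character 1 at h2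
    rw [mul_one, h1] at h2
    unfold Representation.character at h2
    rw [hω, map_smul, LinearMap.trace_one] at h2
    simp only [Module.finrank_fin_fun, smul_eq_mul] at h2
    exact mul_right_cancel₀ hn0 h2
  have hA : (m⁻¹ • ρ c) * (m⁻¹ • ρ c) = 1 := by
    rw [smul_mul_smul_comm, ← map_mul, hcc, hω, hω', ← hm, smul_smul]
    have : m⁻¹ * m⁻¹ * m ^ 2 = 1 := by field_simp
    rw [this, one_smul]
  obtain ⟨r, hr⟩ := Cfsg.Agent.S0944.trace_of_sq_eq_one (m⁻¹ • ρ c) hA
  refine ⟨2 * r - n, ?_, ?_⟩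
  · change LinearMap.trace ℂ _ (ρ c) = _
    rw [map_smul, smul_eq_mul] at hr
    have h3 : LinearMap.trace ℂ (Fin n → ℂ) (ρ c) = m * (m⁻¹ * LinearMap.trace ℂ (Fin n → ℂ) (ρ c)) := by
      field_simp
    rw [h3, hr]
    simp
  · change (2 : ℤ) ∣ (Cfsg.charDegree ρ.character : ℤ) - _
    rw [hdeg]
    exact ⟨n - r, by ring⟩

/-- **Nonvanishing.** `c` is a square root of a central element centralizing a Sylow `p`-subgroup `Q`, and fused in `C(Q)`
only to `z c`, `lam z = 1`. -/
theorem nonvan [Finite W] {j : Z →* W} (hZ : ∀ z w, j z * w = w * j z) (lam : Z →* ℂˣ) {p : ℕ} [Fact p.Prime]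
    (_hpZ : ¬ p ∣ Nat.card Z) {c : W} {zc : Z} {m : ℂ}
    (Q : Sylow p W) (hcQ : ∀ q ∈ (Q : Subgroup W), c * q = q * c) (hcc : c * c = j zc) (hm : m ^ 2 = (lam zc : ℂ))
    (hf : ∀ g : W, (∀ q ∈ (Q : Subgroup W), g * c * g⁻¹ * q = q * (g * c * g⁻¹)) →
      ∃ z : Z, g * c * g⁻¹ = j z * c ∧ lam z = 1)
    (χ : IrrCharacter W) (hχ : Over j lam (χ : W → ℂ)) (hp : ¬ p ∣ charDegree (χ : W → ℂ)) :
    ∃ k : ℤ, (χ : W → ℂ) c = m * k ∧ ¬ (p : ℤ) ∣ k := by
  classical
  obtain ⟨k, hk, -⟩ := val hZ lam hcc hm χ hχ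
  refine ⟨k, hk, fun hpk => ?_⟩
  have hP : p.Prime := Fact.out
  have hm0 : m ≠ 0 := by
    rintro rfl
    rw [zero_pow two_ne_zero] at hm
    exact (lam zc).ne_zero hm.symm
  have : Fintype W := Fintype.ofFinite W
  have hχ1 : (χ : W → ℂ) 1 = (charDegree (χ : W → ℂ) : ℂ) := one_eq χ.2
  have hχ0 : (χ : W → ℂ) 1 ≠ 0 := Characters.Central.irr_one_ne_zero χ.2
  set d : ℕ := charDegree (χ : W → ℂ) with hd
  set I : ℕ := (Subgroup.centralizer ({c} : Set W)).index with hI
  set C : Subgroup W := Subgroup.centralizer ((Q : Subgroup W) : Set W) with hC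
  set nK : ℕ := (Finset.univ.filter fun u : W => IsConj c u ∧ u ∈ C).card with hnK
  -- elements of `K ∩ C(Q)`
  have hKC : ∀ u : W, IsConj c u → u ∈ C → ∃ z : Z, u = j z * c ∧ lam z = 1 := by
    intro u hu huC
    obtain ⟨g, rfl⟩ := isConj_iff.1 hu
    exact hf g fun q hq => (Subgroup.mem_centralizer_iff.1 huC q hq).symm
  -- the index is prime to `p`
  have hIp : ¬ p ∣ I := by
    intro h
    have h1 : (Q : Subgroup W) ≤ Subgroup.centralizer ({c} : Set W) := by
      intro q hq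
      rw [Subgroup.mem_centralizer_singleton_iff]
      exact (hcQ q hq).symm
    exact Q.not_dvd_index (h.trans (Subgroup.index_dvd_of_le h1))
  -- the size of `K`
  have hK1 : (I : ℤ) = nK + p * (0 : ℤ) ∨ ∃ a : ℤ, (I : ℤ) = nK + p * a := by
    right
    obtain ⟨a, ha⟩ := Blocks.OrbitSum.sum_eq_sum_centralizer_add_smul (Q : Subgroup W) Q.isPGroup'
      (fun u : W => if IsConj c u then (1 : ℤ) else 0) (by
        intro u _ x
        have : IsConj c (u * x * u⁻¹) ↔ IsConj c x :=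
          ⟨fun h => h.trans (isConj_iff.2 ⟨u⁻¹, by group⟩), fun h => h.trans (isConj_iff.2 ⟨u, rfl⟩)⟩
        simp only [this])
    refine ⟨a, ?_⟩
    rw [Finset.sum_ite, Finset.sum_const_zero, add_zero, Finset.sum_ite, Finset.sum_const_zero, add_zero,
      Finset.sum_const, Finset.sum_const, Characters.ClassMul.card_filter_isConj, Finset.filter_filter] at ha
    simp only [nsmul_eq_mul, mul_one] at ha
    rw [ha, hnK]
    congr 2
    congr 1
    ext u
    simp only [Finset.mem_filter, Finset.mem_univ, true_and]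
    exact and_comm
  have hnKp : ¬ (p : ℤ) ∣ nK := by
    intro h
    apply hIp
    obtain ⟨a, ha⟩ : ∃ a : ℤ, (I : ℤ) = nK + p * a := by
      rcases hK1 with h | h
      · exact ⟨0, h⟩
      · exact h
    have : (p : ℤ) ∣ (I : ℤ) := by
      rw [ha]
      exact dvd_add h (dvd_mul_right _ _)
    exact_mod_cast this
  -- the sum over `K × K`
  let D : Subgroup (W × W) := (Q : Subgroup W).map ((MonoidHom.id W).prod (MonoidHom.id W))
  have hD : ∀ u : W × W, u ∈ D ↔ ∃ q ∈ (Q : Subgroup W), u = (q, q) := by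
    intro u
    rw [Subgroup.mem_map]
    constructor
    · rintro ⟨q, hq, rfl⟩
      exact ⟨q, hq, rfl⟩
    · rintro ⟨q, hq, rfl⟩
      exact ⟨q, hq, rfl⟩
  let f : W × W → AlgInt := fun x => if IsConj c x.1 ∧ IsConj c x.2 then
    (⟨(χ : W → ℂ) (x.1 * x.2), CharactersDeep.ModCongr.isIntegral_irr χ.2 _⟩ : AlgInt) else 0
  have hconj : ∀ u x : W, IsConj c (u * x * u⁻¹) ↔ IsConj c x := fun u x =>
    ⟨fun h => h.trans (isConj_iff.2 ⟨u⁻¹, by group⟩), fun h => h.trans (isConj_iff.2 ⟨u, rfl⟩)⟩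
  obtain ⟨a, ha⟩ := Blocks.OrbitSum.sum_eq_sum_centralizer_add_smul (G := W × W) D (Q.isPGroup'.map _) f (by
    intro u hu x
    obtain ⟨q, -, rfl⟩ := (hD u).1 hu
    simp only [f, Prod.fst_mul, Prod.snd_mul, Prod.fst_inv, Prod.snd_inv, hconj]
    split_ifs with h
    · apply Subtype.ext
      simp only
      have : q * x.1 * q⁻¹ * (q * x.2 * q⁻¹) = q * (x.1 * x.2) * q⁻¹ := by group
      rw [this]
      exact isIrr_isClassFunction χ.2 _ _
    · rfl)
  have hfix : ∀ x : W × W, x ∈ Subgroup.centralizer (D : Set (W × W)) ↔ x.1 ∈ C ∧ x.2 ∈ C := by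
    intro x
    rw [Subgroup.mem_centralizer_iff]
    constructor
    · intro h
      constructor
      · rw [hC, Subgroup.mem_centralizer_iff]
        intro q hq
        exact congrArg Prod.fst (h (q, q) ((hD _).2 ⟨q, hq, rfl⟩))
      · rw [hC, Subgroup.mem_centralizer_iff]
        intro q hq
        exact congrArg Prod.snd (h (q, q) ((hD _).2 ⟨q, hq, rfl⟩))
    · rintro ⟨h1, h2⟩ u hu
      obtain ⟨q, hq, rfl⟩ := (hD u).1 hu
      exact Prod.ext (Subgroup.mem_centralizer_iff.1 h1 q hq) (Subgroup.mem_centralizer_iff.1 h2 q hq)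
  have ha' := congrArg (fun t : AlgInt => (t : ℂ)) ha
  simp only [AddSubmonoidClass.coe_finsetSum, AddMemClass.coe_add] at ha'
  have hL : ∑ x : W × W, ((f x : AlgInt) : ℂ) = (I : ℂ) * I * (m ^ 2 * k ^ 2) / d := by
    have h1 := Characters.ClassMul.sum_class_sum_class_char_mul χ.2 c c
    have h2 : ∑ x : W × W, ((f x : AlgInt) : ℂ) = ∑ u with IsConj c u, ∑ v with IsConj c v, (χ : W → ℂ) (u * v) := by
      rw [Fintype.sum_prod_type, Finset.sum_filter]
      refine Finset.sum_congr rfl fun u _ => ?_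
      rw [Finset.sum_filter]
      split_ifs with hu
      · refine Finset.sum_congr rfl fun v _ => ?_
        simp only [f, hu, true_and]
        split_ifs <;> rfl
      · refine Finset.sum_eq_zero fun v _ => ?_
        simp only [f, hu, false_and, if_false]
        rfl
    rw [h2]
    have h3 : ∑ u with IsConj c u, ∑ v with IsConj c v, (χ : W → ℂ) (u * v) / (χ : W → ℂ) 1 =
        (∑ u with IsConj c u, ∑ v with IsConj c v, (χ : W → ℂ) (u * v)) / (χ : W → ℂ) 1 := by
      rw [Finset.sum_div]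
      exact Finset.sum_congr rfl fun u _ => (Finset.sum_div _ _ _).symm
    rw [h3, hk, ← hI] at h1
    rw [← hχ1]
    field_simp at h1 ⊢
    linear_combination h1
  have hR : ∑ x ∈ Finset.univ.filter (· ∈ Subgroup.centralizer (D : Set (W × W))), ((f x : AlgInt) : ℂ) =
      (nK : ℂ) * nK * (m ^ 2 * d) := by
    have h1 : ∀ x ∈ Finset.univ.filter (· ∈ Subgroup.centralizer (D : Set (W × W))), ((f x : AlgInt) : ℂ) =
        if (IsConj c x.1 ∧ x.1 ∈ C) ∧ (IsConj c x.2 ∧ x.2 ∈ C) then m ^ 2 * (d : ℂ) else 0 := by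
      intro x hx
      rw [Finset.mem_filter, hfix] at hx
      obtain ⟨-, hx1, hx2⟩ := hx
      simp only [f, hx1, hx2, and_true]
      split_ifs with h
      · obtain ⟨z, hz, hz1⟩ := hKC _ h.1 hx1
        obtain ⟨z', hz', hz1'⟩ := hKC _ h.2 hx2
        have h2 : x.1 * x.2 = j (z * z' * zc) * 1 := by
          rw [hz, hz', mul_one, map_mul, map_mul, ← hcc, mul_assoc, ← mul_assoc c, ← hZ z' c]
          simp only [mul_assoc]
        change (χ : W → ℂ) (x.1 * x.2) = _
        rw [h2, hχ, map_mul, map_mul, hz1, hz1', hχ1, hm]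
        simp
      · rfl
    rw [Finset.sum_congr rfl h1, ← Finset.sum_filter, Finset.sum_const, nsmul_eq_mul]
    congr 1
    have h2 : ((Finset.univ.filter (· ∈ Subgroup.centralizer (D : Set (W × W)))).filter
        fun x : W × W => (IsConj c x.1 ∧ x.1 ∈ C) ∧ (IsConj c x.2 ∧ x.2 ∈ C)) =
        (Finset.univ.filter fun u : W => IsConj c u ∧ u ∈ C) ×ˢ (Finset.univ.filter fun u : W => IsConj c u ∧ u ∈ C) := by
      ext x
      simp only [Finset.mem_filter, Finset.mem_univ, true_and, Finset.mem_product, hfix]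
      tauto
    rw [h2, Finset.card_product]
    push_cast
    rfl
  have hA : ((p • a : AlgInt) : ℂ) = (p : ℂ) * (a : ℂ) := by
    rw [nsmul_eq_mul]
    push_cast
    rfl
  rw [hL, hR, hA] at ha'
  have hd0 : (d : ℂ) ≠ 0 := by rw [← hχ1]; exact hχ0
  have h4 : (((I : ℤ) ^ 2 * k ^ 2 - (nK : ℤ) ^ 2 * (d : ℤ) ^ 2 : ℤ) : ℂ) = (p : ℂ) * ((a : ℂ) * d * (m ^ 2)⁻¹) := by
    push_cast
    have hm2 : m ^ 2 ≠ 0 := pow_ne_zero _ hm0
    field_simp at ha' ⊢
    linear_combination ha'
  have h5 : IsIntegral ℤ ((a : ℂ) * d * (m ^ 2)⁻¹) := by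
    refine IsIntegral.mul (IsIntegral.mul a.2 ?_) ?_
    · have h10 : IsIntegral ℤ (algebraMap ℤ ℂ (d : ℤ)) := isIntegral_algebraMap
      simpa using h10
    · have h8 := hχ (zc ^ Nat.card W) 1
      rw [map_pow, pow_card_eq_one', one_mul, map_pow] at h8
      have h9 : ((lam zc : ℂ)) ^ Nat.card W = 1 := by
        have h10 := mul_right_cancel₀ hχ0 (((one_mul _).trans h8))
        rw [h10]
        push_cast
        rfl
      refine IsIntegral.of_pow (R := ℤ) (B := ℂ) (n := Nat.card W) Nat.card_pos ?_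
      rw [hm, inv_pow, h9, inv_one]
      exact isIntegral_one
  have h6 := CharactersDeep.RChar.dvd_of_isIntegral hP.ne_zero h5 h4
  have h7 : (p : ℤ) ∣ (nK : ℤ) ^ 2 * (d : ℤ) ^ 2 := by
    have h8 : (p : ℤ) ∣ (I : ℤ) ^ 2 * k ^ 2 := Dvd.dvd.mul_left (hpk.trans (dvd_pow_self k two_ne_zero)) _
    have := dvd_sub h8 h6
    simpa using this
  have hpi : Prime (p : ℤ) := Nat.prime_iff_prime_int.1 hP
  rcases hpi.dvd_or_dvd h7 with h8 | h8
  · exact hnKp (hpi.dvd_of_dvd_pow h8)
  · exact hp (by exact_mod_cast hpi.dvd_of_dvd_pow h8)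

end Cfsg.Agent.H507.TI
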